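import Mathlib
import Cfsg.Agent.GT.LBalance
import Cfsg.Agent.GT.PComponentsOf
import Cfsg.Agent.GT.CoprimeFixed
import Cfsg.Agent.Inv.FzBasic
import Cfsg.Agent.S1314

/-! Intrinsic 2-components with a unique involution: basic tools. -/

set_option autoImplicit false

namespace Cfsg.Agent.Intr

open Subgroup Cfsg.Agent.GT Cfsg.Agent.Inv.Fz
open scoped commutatorElement

variable {G : Type*} [Group G]

/-- The centralizer of one element. -/
abbrev Cz (z : G) : Subgroup G := centralizer ({z} : Set G)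

theorem mem_Cz {z x : G} : x ∈ Cz z ↔ x * z = z * x := mem_centralizer_singleton_iff

/-- `x` is a 2-element. -/
def Two (x : G) : Prop := ∃ n : ℕ, x ^ 2 ^ n = 1

theorem two_of_mem {P : Subgroup G} (hP : IsPGroup 2 P) {x : G} (hx : x ∈ P) : Two x := by
  obtain ⟨n, hn⟩ := hP ⟨x, hx⟩
  exact ⟨n, congrArg Subtype.val hn⟩

theorem Two.orderOf {x : G} (h : Two x) : ∃ k, orderOf x = 2 ^ k := by
  obtain ⟨n, hn⟩ := h
  obtain ⟨k, -, hk⟩ := (Nat.dvd_prime_pow Nat.prime_two).1 (orderOf_dvd_of_pow_eq_one hn)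
  exact ⟨k, hk⟩

theorem Two.isPGroup {x : G} (h : Two x) : IsPGroup 2 (zpowers x) := by
  obtain ⟨k, hk⟩ := h.orderOf
  exact IsPGroup.of_card (by rw [Nat.card_zpowers, hk])

theorem two_of_sq {x : G} (h : x * x = 1) : Two x := ⟨1, by simpa [sq] using h⟩

theorem ord_two {x : G} (h : x * x = 1) (h1 : x ≠ 1) : orderOf x = 2 :=
  orderOf_eq_prime (by rwa [sq]) h1

theorem Two.eq_one [Finite G] {x : G} (h : Two x) {H : Subgroup G} (hx : x ∈ pPrimeCoreOf 2 H) :
    x = 1 := by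
  obtain ⟨k, hk⟩ := h.orderOf
  have h1 : _root_.orderOf x ∣ Nat.card (pPrimeCoreOf 2 H) := Subgroup.orderOf_dvd_natCard _ hx
  have h2 := (coprime_card_pPrimeCoreOf 2 H).coprime_dvd_left h1
  rw [hk] at h2
  have : (2 ^ k).Coprime (2 ^ k) := h2.pow_right k
  rw [← orderOf_eq_one_iff, hk]
  simpa using this

/-- A 2-element different from `1` has a power of order two. -/
theorem Two.exists_inv {x : G} (h : Two x) (h1 : x ≠ 1) :
    ∃ n : ℕ, x ^ n * x ^ n = 1 ∧ x ^ n ≠ 1 := by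
  obtain ⟨n, hn⟩ := h
  induction n generalizing x with
  | zero => exact absurd (by simpa using hn) h1
  | succ n ih =>
    by_cases h2 : x ^ 2 = 1
    · exact ⟨1, by simpa [sq] using h2, by simpa using h1⟩
    · obtain ⟨m, hm⟩ := ih h2 (by rw [← pow_mul, ← pow_succ', hn])
      exact ⟨2 * m, by simpa [pow_mul] using hm⟩

/-- The elements of `H` centralizing `J` modulo `O(H)`. -/
def cb (H J : Subgroup G) : Subgroup G where
  carrier := {x | x ∈ H ∧ ∀ j ∈ J, ⁅x, j⁆ ∈ pPrimeCoreOf 2 H}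
  one_mem' := ⟨H.one_mem, fun j _ => by simp⟩
  mul_mem' := fun {x y} hx hy => ⟨H.mul_mem hx.1 hy.1, fun j hj => by
    have h1 := CopAct.conj_mem (le_normalizer_pPrimeCoreOf (p := 2) H) hx.1 (hy.2 j hj)
    have := Subgroup.mul_mem _ h1 (hx.2 j hj)
    convert this using 1
    simp only [commutatorElement_def]; group⟩
  inv_mem' := fun {x} hx => ⟨H.inv_mem hx.1, fun j hj => by
    have h1 := CopAct.conj_mem' (le_normalizer_pPrimeCoreOf (p := 2) H) hx.1
      (Subgroup.inv_mem _ (hx.2 j hj))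
    convert h1 using 1
    simp only [commutatorElement_def]; group⟩

theorem mem_cb {H J : Subgroup G} {x : G} :
    x ∈ cb H J ↔ x ∈ H ∧ ∀ j ∈ J, ⁅x, j⁆ ∈ pPrimeCoreOf 2 H := Iff.rfl

theorem cb_le {H J : Subgroup G} : cb H J ≤ H := fun _ h => h.1

theorem mem_cb_of_comm {H J : Subgroup G} {x : G} (hx : x ∈ H) (h : ∀ j ∈ J, x * j = j * x) :
    x ∈ cb H J :=
  ⟨hx, fun j hj => by rw [commutatorElement_eq_one_iff_mul_comm.2 (h j hj)]; exact one_mem _⟩

theorem core_le_cb {H J : Subgroup G} (hJ : J ≤ H) : pPrimeCoreOf 2 H ≤ cb H J := fun x hx =>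
  ⟨pPrimeCoreOf_le H hx, fun j hj => by
    have := Subgroup.mul_mem _ hx (CopAct.conj_mem (le_normalizer_pPrimeCoreOf (p := 2) H) (hJ hj)
      (Subgroup.inv_mem _ hx))
    simpa [commutatorElement_def, mul_assoc] using this⟩

theorem commutator_cb {H J : Subgroup G} : ⁅J, cb H J⁆ ≤ pPrimeCoreOf 2 H :=
  commutator_le.2 fun j hj x hx => by
    rw [← commutatorElement_inv]; exact Subgroup.inv_mem _ (hx.2 j hj)

theorem le_cb {H J A : Subgroup G} (hA : A ≤ H) (h : ⁅J, A⁆ ≤ pPrimeCoreOf 2 H) : A ≤ cb H J :=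
  fun x hx => ⟨hA hx, fun j hj => by
    rw [← commutatorElement_inv]; exact Subgroup.inv_mem _ (h (commutator_mem_commutator hj hx))⟩

theorem conj_mem_cb {H J : Subgroup G} {g x : G} (hg : g ∈ H) (hn : g ∈ normalizer (J : Set G))
    (hx : x ∈ cb H J) : g * x * g⁻¹ ∈ cb H J :=
  ⟨H.mul_mem (H.mul_mem hg hx.1) (H.inv_mem hg), fun j hj => by
    have := CopAct.conj_mem (le_normalizer_pPrimeCoreOf (p := 2) H) hg
      (hx.2 _ (conj_mem_of_mem_normalizer' hn hj))
    convert this using 1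
    simp only [commutatorElement_def]; group⟩

variable [Finite G]

theorem comm_of_cb {H J P : Subgroup G} (hP : IsPGroup 2 P) {x j : G} (hx : x ∈ cb H J)
    (hj : j ∈ J) (hxP : x ∈ P) (hjP : j ∈ P) : x * j = j * x :=
  commutatorElement_eq_one_iff_mul_comm.1 <| (two_of_mem hP (P.mul_mem (P.mul_mem (P.mul_mem
    hxP hjP) (P.inv_mem hxP)) (P.inv_mem hjP))).eq_one (hx.2 j hj)

theorem cb_le_normalizer {H J : Subgroup G} (hJ : IsPComponentOf 2 J H) :
    cb H J ≤ normalizer (J : Set G) :=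
  hJ.le_normalizer_of_commutator_le Nat.prime_two cb_le commutator_cb

theorem le_cb_of_ne {H J K : Subgroup G} (hJ : IsPComponentOf 2 J H) (hK : IsPComponentOf 2 K H)
    (h : J ≠ K) : K ≤ cb H J :=
  le_cb hK.le ((hJ.commutator_le_of_ne Nat.prime_two hK h).trans hJ.pPrimeCoreOf_le)

theorem comp_cj {H J : Subgroup G} (hJ : IsPComponentOf 2 J H) (g : G) :
    IsPComponentOf 2 (cj g J) (cj g H) :=
  hJ.map_of_injective Nat.prime_two (MulAut.conj g).injective

theorem comp_cj' {H J : Subgroup G} (hJ : IsPComponentOf 2 J H) {g : G} (hg : g ∈ H) :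
    IsPComponentOf 2 (cj g J) H := by
  simpa only [cj_eq_of_mem hg] using comp_cj hJ g

/-- A conjugate of an element of `J` by an element moving `J` centralizes `J` modulo the core. -/
theorem conj_mem_cb_of_not {H J : Subgroup G} (hJ : IsPComponentOf 2 J H) {g j : G} (hg : g ∈ H)
    (hn : g ∉ normalizer (J : Set G)) (hj : j ∈ J) : g * j * g⁻¹ ∈ cb H J :=
  le_cb_of_ne hJ (comp_cj' hJ hg) (fun e => hn (cj_eq_iff.1 e.symm)) (conj_mem_cj.2 hj)

theorem syl_inf {H J P : Subgroup G} (hJ : IsPComponentOf 2 J H) (hP : IsSylIn 2 P H) :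
    IsSylIn 2 (P ⊓ J) J := by
  have h1 := hP.inf_of_le_normalizer (pLayerOf_le (p := 2) H) (le_normalizer_pLayerOf H)
  have h2 := h1.inf_of_le_normalizer hJ.le_pLayerOf (hJ.pLayerOf_le_normalizer Nat.prime_two)
  rwa [inf_assoc, inf_eq_right.2 hJ.le_pLayerOf] at h2

theorem exists_inner {H J : Subgroup G} (hJ : IsPComponentOf 2 J H) {x : G}
    (hx : x ∈ pLayerOf 2 H) : ∃ k ∈ J, k⁻¹ * x ∈ cb H J := by
  have h1 : pLayerOf 2 H ≤ J ⊔ cb H J := pLayerOf_le_iff.2 fun K hK => by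
    by_cases e : J = K
    · exact e ▸ le_sup_left
    · exact (le_cb_of_ne hJ hK e).trans le_sup_right
  obtain ⟨k, hk, c, hc, rfl⟩ := (CopAct.mem_sup_iff_of_le_normalizer (cb_le_normalizer hJ)).1 (h1 hx)
  exact ⟨k, hk, by simpa using hc⟩

section Lift

variable {X : Type*} [Group X] [Finite X]

theorem lift_aux {v q : X} (hv : orderOf v = 2) {D : Subgroup (X ⧸ pPrimeCore 2 X)}
    (hD : IsPComponentOf 2 D (Cz (QuotientGroup.mk' (pPrimeCore 2 X) v))) (hq : Two q)
    (hqv : q ∈ Cz v) (hqD : QuotientGroup.mk' (pPrimeCore 2 X) q ∈ D) :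
    q ∈ pLayerOf 2 (Cz v) := by
  have hc : (Nat.card (zpowers v)).Coprime (Nat.card (pPrimeCore 2 X)) := by
    rw [Nat.card_zpowers, hv]; exact (coprime_card_pPrimeCore 2).symm
  have h1 := CopAct.map_mk'_centralizer (pPrimeCore 2 X) hc (Or.inl (CopAct.isSolvable_zpowers v))
  rw [MonoidHom.map_zpowers, centralizer_zpowers, centralizer_zpowers] at h1
  rw [Cz, ← h1] at hD
  have hk : (Nat.card ((QuotientGroup.mk' (pPrimeCore 2 X)).ker ⊓ centralizer {v} :
      Subgroup X)).Coprime 2 := by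
    rw [QuotientGroup.ker_mk']
    exact (coprime_card_pPrimeCore 2).coprime_dvd_left (card_dvd_of_le inf_le_left)
  obtain ⟨k, hk'⟩ := hq.orderOf
  exact (hD.lift Nat.prime_two hk).1.le_pLayerOf (mem_pElementClosure ⟨hqD, hqv⟩ hk')

theorem orderOf_mk {v : X} (hv : orderOf v = 2) :
    orderOf (QuotientGroup.mk' (pPrimeCore 2 X) v) = 2 := by
  have h2 : v * v = 1 := by rw [← sq, ← hv, pow_orderOf_eq_one]
  refine ord_two (by rw [← map_mul, h2, map_one]) fun h => ?_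
  have h1 : v ∈ pPrimeCoreOf 2 (⊤ : Subgroup X) := by
    rw [pPrimeCoreOf_top]; exact (QuotientGroup.eq_one_iff v).1 h
  rw [(two_of_sq h2).eq_one h1, orderOf_one] at hv
  exact absurd hv (by decide)

theorem cent_aux {K : Subgroup X} (hK : IsPComponent 2 K) {v q : X} (hv : orderOf v = 2)
    (hc : ∀ k ∈ K, ⁅v, k⁆ ∈ pPrimeCore 2 X) (hqK : q ∈ K) (hq : Two q) (hqv : q ∈ Cz v) :
    q ∈ pLayerOf 2 (Cz v) := by
  have h1 := hK.map_of_coprime Nat.prime_two (QuotientGroup.mk'_surjective (pPrimeCore 2 X))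
    (by rw [QuotientGroup.ker_mk']; exact coprime_card_pPrimeCore 2)
  refine lift_aux hv (h1.isPComponentOf Nat.prime_two ?_) hq hqv (mem_map_of_mem _ hqK)
  rintro _ ⟨k, hk, rfl⟩
  rw [mem_Cz, eq_comm, ← commutatorElement_eq_one_iff_mul_comm, ← map_commutatorElement]
  exact (QuotientGroup.eq_one_iff _).2 (hc k hk)

theorem diag_aux {K : Subgroup X} (hK : IsPComponent 2 K) {v i : X} (hv : orderOf v = 2)
    (hn : v ∉ normalizer (K : Set X)) (hi : i ∈ K) (hq : Two (i * (v * i * v⁻¹)))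
    (hqv : i * (v * i * v⁻¹) ∈ Cz v) : i * (v * i * v⁻¹) ∈ pLayerOf 2 (Cz v) := by
  set f := QuotientGroup.mk' (pPrimeCore 2 X) with hf
  have hk : (Nat.card f.ker).Coprime 2 := by
    rw [QuotientGroup.ker_mk']; exact coprime_card_pPrimeCore 2
  have h1 := hK.map_of_coprime Nat.prime_two (QuotientGroup.mk'_surjective (pPrimeCore 2 X)) hk
  have hK2 := hK.map_conj Nat.prime_two v
  have h2 := hK2.map_of_coprime Nat.prime_two (QuotientGroup.mk'_surjective (pPrimeCore 2 X)) hk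
  rw [map_map_conj] at h2
  have hne : K ≠ K.map (MulAut.conj v).toMonoidHom := fun e => hn (map_conj_eq_self_iff.1 e.symm)
  have hc : ⁅K.map f, (K.map f).map (MulAut.conj (f v)).toMonoidHom⁆ = ⊥ := by
    rw [← map_map_conj, ← commutator_le_iff_map_mk']
    exact hK.commutator_le_pPrimeCore_of_ne Nat.prime_two hK2 hne
  obtain ⟨π, hπ, hker, hC, hder⟩ := S1314.result (f v) (orderOf_mk hv) (K.map f) h1.commutator_eq hc
  have hq1 := h1.isPQuasisimple Nat.prime_two
  have hnt : π.range ≠ ⊥ := fun e => hq1.not_isSolvable <| by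
    have : center (K.map f) = ⊤ := top_le_iff.1 ((MonoidHom.range_eq_bot_iff.1 e ▸ by
      simp : ⊤ ≤ π.ker).trans hker)
    exact Group.isSolvable_of_comm fun a b => (mem_center_iff.1 (this ▸ mem_top b) a)
  have : Nontrivial π.range := (Subgroup.nontrivial_iff_ne_bot _).2 hnt
  have hq2 : IsPQuasisimple 2 π.range :=
    hq1.of_surjective Nat.prime_two π.rangeRestrict_surjective
  refine lift_aux hv (D := π.range) ((isPComponentOf_iff Nat.prime_two).2 ⟨?_, hq2⟩) hq hqv ?_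
  · have hs : (K.map f ⊔ (K.map f).map (MulAut.conj (f v)).toMonoidHom).IsSubnormal :=
      isSubnormal_sup h1.isSubnormal h2.isSubnormal
    refine SubnormalIn.step ?_ ?_ (subnormalIn_inf_right_of_isSubnormal hs (Cz (f v)))
    · rw [← hder]; exact commutator_le_self _
    · rw [← hder]; exact le_normalizer_commutator le_normalizer le_normalizer
  · exact ⟨⟨f i, mem_map_of_mem _ hi⟩, by rw [hπ, map_mul, map_mul, map_mul, map_inv]⟩

end Lift

theorem balance {t v : G} (ht : Two t) (hv : v ∈ Cz t) {q : Cz t}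
    (hq : q ∈ pLayerOf 2 (Cz (⟨v, hv⟩ : Cz t))) : (q : G) ∈ pLayerOf 2 (Cz v) := by
  have h1 := mem_map_of_mem (Cz t).subtype hq
  rw [map_pLayerOf_of_injective _ (Cz t).subtype_injective] at h1
  have e : (Cz (⟨v, hv⟩ : Cz t)).map (Cz t).subtype = Cz v ⊓ centralizer (zpowers t : Set G) := by
    rw [centralizer_zpowers, ← subgroupOf_map_subtype]
    exact congrArg _ (centralizer_singleton_subgroup (⟨v, hv⟩ : Cz t))
  rw [e] at h1
  refine pLayerOf_inf_centralizer_le_pLayerOf_two ht.isPGroup ?_ h1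
  rw [zpowers_le]
  exact le_normalizer (mem_Cz.2 (mem_Cz.1 hv).symm)

/-- The diagonal element `i i^v` lies in the 2-layer of `C(v)`. -/
theorem diag_mem {K : Subgroup G} {t v i : G} (ht : Two t) (hK : IsPComponentOf 2 K (Cz t))
    (hv : orderOf v = 2) (hvt : v ∈ Cz t) (hn : v ∉ normalizer (K : Set G)) (hi : i ∈ K)
    (hq : Two (i * (v * i * v⁻¹))) (hqv : i * (v * i * v⁻¹) ∈ Cz v) :
    i * (v * i * v⁻¹) ∈ pLayerOf 2 (Cz v) := by
  obtain ⟨n, hn'⟩ := hq
  refine balance ht hvt (q := ⟨i, hK.le hi⟩ * (⟨v, hvt⟩ * ⟨i, hK.le hi⟩ * (⟨v, hvt⟩)⁻¹))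
    (diag_aux hK.2 (by rw [← hv, ← Subgroup.orderOf_coe]) (fun h => hn ?_) hi ⟨n, Subtype.ext hn'⟩
      (mem_Cz.2 (Subtype.ext (mem_Cz.1 hqv))))
  rw [normalizer_eq_subgroupOf, map_subgroupOf_eq_of_le hK.le] at h
  exact h

/-- 2-elements of `C_K(v)` lie in the 2-layer of `C(v)` if `v` centralizes `K` modulo the core. -/
theorem cent_mem {K : Subgroup G} {t v q : G} (ht : Two t) (hK : IsPComponentOf 2 K (Cz t))
    (hv : orderOf v = 2) (hc : v ∈ cb (Cz t) K) (hqK : q ∈ K) (hq : Two q) (hqv : q ∈ Cz v) :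
    q ∈ pLayerOf 2 (Cz v) := by
  obtain ⟨n, hn'⟩ := hq
  refine balance ht hc.1 (q := ⟨q, hK.le hqK⟩)
    (cent_aux hK.2 ((Subgroup.orderOf_coe _).symm.trans hv) (fun k hk => ?_) hqK ⟨n, Subtype.ext hn'⟩
      (mem_Cz.2 (Subtype.ext (mem_Cz.1 hqv))))
  rw [← pPrimeCoreOf_subgroupOf]
  exact hc.2 k hk

end Cfsg.Agent.Intr
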